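import Cfsg.Agent.Lib.PLocal.ZJStable
import Cfsg.Agent.Lib.Transfer.Abelian
import Cfsg.Agent.Lib.Solv.Frobenius
import Cfsg.Agent.Lib.Solv.Supersolvable
import Cfsg.Agent.Lib.PLocal.QdRankTwo
import Cfsg.Agent.Lib.Solv.MinNormal
import Cfsg.Agent.Lib.Solv.Cores
import Cfsg.Agent.Lib.Transfer.PGroupNormal
import Cfsg.Agent.Lib.TwoFus.CyclicSylow

/-!
# Isolated primes in groups of odd order with solvable local subgroups

A prime `p` is isolated when centralisers of nontrivial `p`-elements are `p`-groups.  In a simple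
group of odd order with all proper subgroups solvable, Sylow subgroups for isolated primes are TI.
-/

set_option autoImplicit false
set_option linter.unusedSectionVars false
set_option linter.style.haveILetI false

open scoped IsMulCommutative commutatorElement

namespace Cfsg.Lib.CNOdd

universe u

variable {G : Type u} [Group G] [Finite G] {p : ℕ} [hp : Fact p.Prime]

/-- Centralisers of nontrivial `p`-elements are `p`-groups. -/
def Isolated (p : ℕ) (G : Type u) [Group G] : Prop :=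
  ∀ x : G, x ≠ 1 → IsPGroup p (Subgroup.zpowers x) →
    IsPGroup p (Subgroup.centralizer ({x} : Set G))

theorem isolated_subgroup (h : Isolated p G) (H : Subgroup G) : Isolated p H := by
  intro x hx hxp
  have hz : IsPGroup p (Subgroup.zpowers (x : G)) := by
    rw [← H.coe_subtype, ← MonoidHom.map_zpowers]; exact hxp.map _
  intro y
  obtain ⟨k, hk⟩ := h (x : G) (fun e => hx (Subtype.ext e)) hz ⟨((y : H) : G),
    Subgroup.mem_centralizer_singleton_iff.mpr
      (congrArg Subtype.val (Subgroup.mem_centralizer_singleton_iff.mp y.2))⟩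
  refine ⟨k, Subtype.ext (Subtype.ext ?_)⟩
  simpa using congrArg Subtype.val hk

theorem Isolated.pGroup_of_centralizes (h : Isolated p G) {X : Subgroup G} (hX : IsPGroup p X)
    (hne : X ≠ ⊥) {H : Subgroup G} (hH : H ≤ Subgroup.centralizer (X : Set G)) : IsPGroup p H := by
  obtain ⟨x, hx, hx1⟩ := X.bot_or_exists_ne_one.resolve_left hne
  refine (h x hx1 (hX.to_le (Subgroup.zpowers_le.mpr hx))).to_le (hH.trans fun y hy => ?_)
  exact Subgroup.mem_centralizer_singleton_iff.mpr (Subgroup.mem_centralizer_iff.mp hy x hx).symm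

theorem pPrimeCore_eq_bot (h : Isolated p G) (hO : pCore p G ≠ ⊥) : pPrimeCore p G = ⊥ := by
  haveI := Transfer.pPrimeCore_normal (G := G) p
  haveI := Transfer.pCore_normal (G := G) p
  have hp' := Transfer.coprime_card_pPrimeCore (G := G) p
  have hP := Transfer.pCore_isPGroup (G := G) p
  have hd : pPrimeCore p G ⊓ pCore p G = ⊥ := by
    obtain ⟨n, hn⟩ := IsPGroup.iff_card.mp hP
    exact Subgroup.inf_eq_bot_of_coprime (by rw [hn]; exact hp'.pow_right n)
  have hc : pPrimeCore p G ≤ Subgroup.centralizer (pCore p G : Set G) := fun x hx =>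
    Subgroup.mem_centralizer_iff.mpr fun y hy =>
      (Subgroup.commute_of_normal_of_disjoint _ _ inferInstance inferInstance
        (disjoint_iff.mpr hd) x y hx hy).eq.symm
  obtain ⟨n, hn⟩ := IsPGroup.iff_card.mp (h.pGroup_of_centralizes hP hO hc)
  rw [← Subgroup.card_eq_one]
  rw [hn] at hp' ⊢
  rcases Nat.eq_zero_or_pos n with h0 | h0
  · rw [h0, pow_zero]
  · exact absurd ((Nat.coprime_pow_left_iff h0 p p).mp hp') (by
      rw [Nat.coprime_self]; exact hp.out.ne_one)

theorem selfCentralizing (h : Isolated p G) (hO : pCore p G ≠ ⊥) :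
    PLocal.SelfCentralizingCore p G := by
  haveI := Transfer.pCore_normal (G := G) p
  exact Transfer.le_pCore inferInstance
    (h.pGroup_of_centralizes (Transfer.pCore_isPGroup p) hO le_rfl)

theorem isPConstrained (h : Isolated p G) (hO : pCore p G ≠ ⊥) : IsPConstrained p G :=
  (PLocal.isPConstrained_iff_of_core_eq_bot (pPrimeCore_eq_bot h hO)).mpr (selfCentralizing h hO)

/-- In an odd group, `q`-subgroups normalising a nontrivial abelian `p`-subgroup are cyclic. -/
theorem isCyclic_of_isolated (h : Isolated p G) (hodd : Odd (Nat.card G)) {q : ℕ}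
    [hq : Fact q.Prime] (hqp : q ≠ p) {W Q : Subgroup G} [IsMulCommutative W] (hW : IsPGroup p W)
    (hW1 : W ≠ ⊥) (hQW : Q ≤ Subgroup.normalizer (W : Set G)) (hQ : IsPGroup q Q) : IsCyclic Q := by
  rcases subsingleton_or_nontrivial Q with hs | hs
  · exact isCyclic_of_subsingleton
  have hfpf : ∀ a ∈ Q, a ≠ 1 → W ⊓ Subgroup.centralizer ({a} : Set G) = ⊥ := by
    intro a ha ha1
    refine (Subgroup.eq_bot_iff_forall _).mpr fun w hw => by_contra fun hw1 => ha1 ?_
    have haw : a ∈ Subgroup.centralizer ({w} : Set G) :=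
      Subgroup.mem_centralizer_singleton_iff.mpr
        (Subgroup.mem_centralizer_singleton_iff.mp hw.2).symm
    obtain ⟨i, hi⟩ := h w hw1 (hW.to_le (Subgroup.zpowers_le.mpr hw.1)) ⟨a, haw⟩
    obtain ⟨j, hj⟩ := hQ ⟨a, ha⟩
    exact orderOf_eq_one_iff.mp (Nat.eq_one_of_dvd_coprimes
      (Nat.Coprime.pow i j ((Nat.coprime_primes hp.out hq.out).mpr hqp.symm))
      (orderOf_dvd_of_pow_eq_one (congrArg Subtype.val hi))
      (orderOf_dvd_of_pow_eq_one (congrArg Subtype.val hj)))
  have hq2 : q ≠ 2 := by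
    rintro rfl
    obtain ⟨n, hn⟩ := IsPGroup.iff_card.mp hQ
    have hne : n ≠ 0 := fun h0 => by
      rw [h0, pow_zero] at hn
      exact absurd hn (Finite.one_lt_card (α := Q)).ne'
    have ho := hodd.of_dvd_nat Q.card_subgroup_dvd_card
    rw [hn] at ho
    exact (Nat.not_even_iff_odd.mpr ho) (Nat.even_pow.mpr ⟨even_two, hne⟩)
  haveI := hQ.center_nontrivial
  obtain ⟨z, hz⟩ := exists_prime_orderOf_dvd_card' q (show q ∣ Nat.card (Subgroup.center Q) from by
    obtain ⟨n, hn⟩ := IsPGroup.iff_card.mp (hQ.to_subgroup (Subgroup.center Q))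
    rcases Nat.eq_zero_or_pos n with h0 | h0
    · rw [h0, pow_zero] at hn
      exact absurd hn (Finite.one_lt_card (α := Subgroup.center Q)).ne'
    · rw [hn]; exact dvd_pow_self q h0.ne')
  have hzq : ((z : Q)) ^ q = 1 := by
    rw [← hz, ← Subgroup.orderOf_coe, pow_orderOf_eq_one]
  have hz1 : (z : Q) ≠ 1 := fun e => hq.out.one_lt.ne' (by
    rw [← hz, ← Subgroup.orderOf_coe, e, orderOf_one])
  have hmem : ∀ x : Q, x ^ q = 1 → x ∈ Subgroup.zpowers (z : Q) := by
    intro x hx
    by_cases hx1 : x = 1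
    · rw [hx1]; exact one_mem _
    set A' := Subgroup.closure ({x, (z : Q)} : Set Q)
    haveI : IsMulCommutative A' := by
      refine Subgroup.isMulCommutative_closure fun a ha b hb => ?_
      have hc := fun w : Q => Subgroup.mem_center_iff.mp z.2 w
      rcases ha with rfl | rfl <;> rcases hb with rfl | rfl
      · rfl
      · exact hc _
      · exact (hc _).symm
      · rfl
    set A := A'.map Q.subtype
    have hAQ : A ≤ Q := Subgroup.map_subtype_le _
    have hAc : IsMulCommutative A := inferInstance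
    haveI : IsCyclic A' := by
      have := Solv.fpf_isCyclic A W hW1 (hAQ.trans hQW)
        (fun a ha ha1 => hfpf a (hAQ ha) ha1) (Or.inl hAc)
      exact isCyclic_of_surjective _ (A'.equivMapOfInjective Q.subtype
        Q.subtype_injective).symm.surjective
    have hzA : (z : Q) ∈ A' := Subgroup.subset_closure (Or.inr rfl)
    have hxA : x ∈ A' := Subgroup.subset_closure (Or.inl rfl)
    have h1 : Nat.card (Subgroup.zpowers (⟨(z : Q), hzA⟩ : A')) =
        Nat.card (Subgroup.zpowers (⟨x, hxA⟩ : A')) := by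
      rw [Nat.card_zpowers, Nat.card_zpowers]
      exact ((Subgroup.orderOf_mk _ hzA).trans (orderOf_eq_prime hzq hz1)).trans
        ((Subgroup.orderOf_mk _ hxA).trans (orderOf_eq_prime hx hx1)).symm
    have h2 : Subgroup.zpowers (⟨(z : Q), hzA⟩ : A') = Subgroup.zpowers (⟨x, hxA⟩ : A') := by
      exact TwoFus.eq_of_card_eq_cyclic h1
    obtain ⟨i, hi⟩ := Subgroup.mem_zpowers_iff.mp (h2 ▸ Subgroup.mem_zpowers (⟨x, hxA⟩ : A'))
    exact Subgroup.mem_zpowers_iff.mpr ⟨i, by simpa using congrArg Subtype.val hi⟩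
  refine PLocal.isCyclic_of_omega hq2 _ Q rfl hQ fun x y hx hy hx1 => ?_
  obtain ⟨i, hi⟩ := Subgroup.mem_zpowers_iff.mp (hmem x hx)
  have : Subgroup.zpowers x = Subgroup.zpowers (z : Q) :=
    Subgroup.eq_of_le_of_card_ge (Subgroup.zpowers_le.mpr (hmem x hx)) (by
      rw [Nat.card_zpowers, Nat.card_zpowers, orderOf_eq_prime hx hx1, orderOf_eq_prime hzq hz1])
  rw [this]
  exact hmem y hy

/-- An element of order prime to `q` fixing a nontrivial element of a cyclic `q`-group centralises it. -/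
theorem centralizes_of_fixed {q : ℕ} [hq : Fact q.Prime] {V : Subgroup G} (hV : IsPGroup q V)
    (hc : IsCyclic V) {g : G} (hg : g ∈ Subgroup.normalizer (V : Set G))
    (hgc : (orderOf g).Coprime q) {y : G} (hy : y ∈ V) (hy1 : y ≠ 1) (hfix : g * y * g⁻¹ = y) :
    g ∈ Subgroup.centralizer (V : Set G) := by
  obtain ⟨⟨v, hv⟩, hvgen⟩ := hc.exists_generator
  have hmem : ∀ a ∈ V, ∃ i : ℤ, v ^ i = a := fun a ha => by
    obtain ⟨i, hi⟩ := Subgroup.mem_zpowers_iff.1 (hvgen ⟨a, ha⟩)
    exact ⟨i, by simpa using congrArg Subtype.val hi⟩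
  obtain ⟨m, hm⟩ := hmem _ ((Subgroup.mem_normalizer_iff.1 hg v).1 hv)
  obtain ⟨n, hn⟩ := IsPGroup.iff_orderOf.1 hV ⟨v, hv⟩
  rw [Subgroup.orderOf_mk] at hn
  have hdiv : (q : ℤ) ∣ m - 1 := by
    obtain ⟨k, hk⟩ := hmem y hy
    have h1 : v ^ (m * k) = v ^ k := by rw [zpow_mul, hm, conj_zpow, hk, hfix]
    have h2 : (orderOf v : ℤ) ∣ (m - 1) * k := by
      rw [orderOf_dvd_iff_zpow_eq_one, sub_mul, one_mul, zpow_sub, h1, mul_inv_cancel]
    by_contra hnd
    rw [hn] at h2
    push_cast at h2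
    have h3 := (Nat.prime_iff_prime_int.1 hq.out).pow_dvd_of_dvd_mul_left n hnd h2
    refine hy1 ?_
    rw [← hk, ← orderOf_dvd_iff_zpow_eq_one, hn]
    exact_mod_cast h3
  have hiter : ∀ j : ℕ, g ^ j * v * (g ^ j)⁻¹ = v ^ (m ^ j) := by
    intro j
    induction j with
    | zero => simp
    | succ j ih =>
      calc g ^ (j + 1) * v * (g ^ (j + 1))⁻¹ = g * (g ^ j * v * (g ^ j)⁻¹) * g⁻¹ := by group
        _ = g * v ^ (m ^ j) * g⁻¹ := by rw [ih]
        _ = (g * v * g⁻¹) ^ (m ^ j) := by rw [conj_zpow]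
        _ = v ^ (m ^ (j + 1)) := by rw [← hm, ← zpow_mul, pow_succ']
  have hj := hiter (orderOf g)
  rw [pow_orderOf_eq_one, one_mul, inv_one, mul_one] at hj
  have h1 : (orderOf v : ℤ) ∣ m ^ orderOf g - 1 := by
    rw [orderOf_dvd_iff_zpow_eq_one, zpow_sub, zpow_one, ← hj, mul_inv_cancel]
  have h2 : (orderOf v : ℤ) ∣ m - 1 := by
    have hsum : (m - 1) * ∑ i ∈ Finset.range (orderOf g), m ^ i = m ^ orderOf g - 1 :=
      mul_geom_sum m _
    rw [← hsum, hn] at h1
    rw [hn]
    push_cast at h1 ⊢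
    refine (Nat.prime_iff_prime_int.1 hq.out).pow_dvd_of_dvd_mul_right n (fun hd => ?_) h1
    have h3 : (q : ℤ) ∣ (∑ i ∈ Finset.range (orderOf g), m ^ i) - (orderOf g : ℤ) := by
      have : (orderOf g : ℤ) = ∑ i ∈ Finset.range (orderOf g), (1 : ℤ) := by simp
      rw [this, ← Finset.sum_sub_distrib]
      refine Finset.dvd_sum fun i _ => hdiv.trans ?_
      simpa using sub_dvd_pow_sub_pow m 1 i
    have h4 : (q : ℤ) ∣ (orderOf g : ℤ) := by simpa using dvd_sub hd h3
    exact hq.out.coprime_iff_not_dvd.1 hgc.symm (Int.natCast_dvd_natCast.1 h4)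
  have hgv : g * v * g⁻¹ = v := by
    rw [← hm]
    have := orderOf_dvd_iff_zpow_eq_one.1 h2
    rwa [zpow_sub, zpow_one, mul_inv_eq_one] at this
  refine Subgroup.mem_centralizer_iff.2 fun a ha => ?_
  obtain ⟨i, rfl⟩ := hmem a ha
  exact (Commute.zpow_right (mul_inv_eq_iff_eq_mul.1 hgv : g * v = v * g) i).symm

/-- A quadratic element cannot act without fixed points on a group which acts without fixed points
on the module. -/
theorem no_quadratic {W Q : Subgroup G} [W.Normal] [IsMulCommutative W] (hW : IsPGroup p W)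
    (hW1 : W ≠ ⊥) (hp2 : p ≠ 2) (hcop : (Nat.card Q).Coprime p) {n : G}
    (hn : n ∈ Subgroup.normalizer (Q : Set G))
    (hnfpf : ∀ y ∈ Q, ∀ i, 0 < i → i < p → n ^ i * y * (n ^ i)⁻¹ = y → y = 1)
    (hfix : ∀ w ∈ W, (∀ q ∈ Q, q * w * q⁻¹ = w) → w = 1)
    (hquad : ∀ w ∈ W, n * (n * w * n⁻¹ * w⁻¹) * n⁻¹ = n * w * n⁻¹ * w⁻¹) : False := by
  classical
  haveI := Fintype.ofFinite Q
  let c : G → (W →* W) := fun y =>
    { toFun := fun x => ⟨y * x * y⁻¹, Subgroup.Normal.conj_mem inferInstance _ x.2 y⟩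
      map_one' := Subtype.ext (by simp)
      map_mul' := fun a b => Subtype.ext (by simp [mul_assoc]) }
  have hc : ∀ (a b : G) (x : W), c a (c b x) = c (a * b) x := fun a b x =>
    Subtype.ext (by simp [c, mul_assoc])
  have hB : ∀ w : W, ∏ q : Q, c q w = 1 := by
    intro w
    refine Subtype.ext (hfix _ (∏ q : Q, c q w : W).2 fun q hq => ?_)
    show ((c q (∏ x : Q, c x w) : W) : G) = _
    rw [map_prod]
    congr 1
    rw [← Equiv.prod_comp (Equiv.mulLeft (⟨q, hq⟩ : Q)) (fun x : Q => c x w)]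
    exact Finset.prod_congr rfl fun x _ => hc q x w
  -- the sum of the powers of `n` is `p` times something
  have horb : ∀ w : W, ∃ u : W, ∏ i ∈ Finset.range p, c (n ^ i) w = u ^ p := by
    intro w
    obtain ⟨t, ht⟩ : ∃ t, t = c n w * w⁻¹ := ⟨_, rfl⟩
    have hct : c n t = t := Subtype.ext (by simpa [ht, c] using hquad w w.2)
    have hpow : ∀ i, c (n ^ i) w = t ^ i * w := by
      intro i
      induction i with
      | zero => exact Subtype.ext (by simp [c])
      | succ i ih =>
        rw [pow_succ', ← hc, ih, map_mul, map_pow, hct, pow_succ, mul_assoc]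
        congr 1
        rw [ht, inv_mul_cancel_right]
    refine ⟨t ^ ((p - 1) / 2) * w, ?_⟩
    rw [Finset.prod_congr rfl fun i _ => hpow i, Finset.prod_mul_distrib, Finset.prod_pow_eq_pow_sum,
      Finset.prod_const, Finset.card_range, mul_pow, ← pow_mul, Finset.sum_range_id]
    congr 2
    obtain ⟨k, hk⟩ := hp.out.odd_of_ne_two hp2
    rw [hk, show 2 * k + 1 - 1 = 2 * k by omega, Nat.mul_div_cancel_left k (by norm_num : 0 < 2),
      show (2 * k + 1) * (2 * k) = 2 * (k * (2 * k + 1)) by ring,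
      Nat.mul_div_cancel_left _ (by norm_num : 0 < 2)]
  choose u hu using horb
  -- every element of `W` is a `p`-th power
  have hsurj : Function.Surjective fun w : W => w ^ p := by
    intro v
    have hD : ∏ i ∈ Finset.range p, ∏ y : Q, c y (c (n ^ i) (c (y : G)⁻¹ v)) =
        (∏ y : Q, c y (u (c (y : G)⁻¹ v))) ^ p := by
      rw [Finset.prod_comm, ← Finset.prod_pow]
      refine Finset.prod_congr rfl fun y _ => ?_
      rw [← map_prod, hu, map_pow]
    have hDi : ∀ i, 0 < i → i < p → ∏ y : Q, c y (c (n ^ i) (c (y : G)⁻¹ v)) = 1 := by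
      intro i hi hip
      have hni : n ^ i ∈ Subgroup.normalizer (Q : Set G) := pow_mem hn i
      let e : Q → Q := fun y => ⟨(y : G) * (n ^ i * (y : G) * (n ^ i)⁻¹)⁻¹,
        Q.mul_mem y.2 (Q.inv_mem ((Subgroup.mem_normalizer_iff.mp hni (y : G)).mp y.2))⟩
      have he : Function.Bijective e := by
        refine Finite.injective_iff_bijective.mp fun a b hab => ?_
        have hab' : (a : G) * (n ^ i * (a : G) * (n ^ i)⁻¹)⁻¹ =
            (b : G) * (n ^ i * (b : G) * (n ^ i)⁻¹)⁻¹ := congrArg Subtype.val hab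
        have h1 : n ^ i * ((b : G)⁻¹ * a) * (n ^ i)⁻¹ = (b : G)⁻¹ * a := by
          calc n ^ i * ((b : G)⁻¹ * a) * (n ^ i)⁻¹
              = (b : G)⁻¹ * ((b : G) * (n ^ i * (b : G) * (n ^ i)⁻¹)⁻¹) *
                  (n ^ i * (a : G) * (n ^ i)⁻¹) := by group
            _ = (b : G)⁻¹ * ((a : G) * (n ^ i * (a : G) * (n ^ i)⁻¹)⁻¹) *
                  (n ^ i * (a : G) * (n ^ i)⁻¹) := by rw [hab']
            _ = _ := by group
        exact Subtype.ext (inv_mul_eq_one.mp
          (hnfpf _ (Q.mul_mem (Q.inv_mem b.2) a.2) i hi hip h1)).symm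
      rw [← hB (c (n ^ i) v)]
      refine Fintype.prod_bijective e he _ _ fun y => ?_
      rw [hc, hc, hc]
      congr 1
      show c ((y : G) * n ^ i * (y : G)⁻¹) = c ((y : G) * (n ^ i * (y : G) * (n ^ i)⁻¹)⁻¹ * n ^ i)
      congr 1
      group
    rw [Finset.prod_eq_single 0 (fun i hi hi0 => hDi i (Nat.pos_of_ne_zero hi0)
      (Finset.mem_range.mp hi)) (fun h0 => absurd (Finset.mem_range.mpr hp.out.pos) h0)] at hD
    have hvQ : v ^ Nat.card Q ∈ Set.range fun w : W => w ^ p := by
      refine ⟨∏ y : Q, c y (u (c (y : G)⁻¹ v)), ?_⟩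
      show (∏ y : Q, c y (u (c (y : G)⁻¹ v))) ^ p = v ^ Nat.card Q
      rw [← hD, Nat.card_eq_fintype_card, ← Finset.card_univ, ← Finset.prod_const]
      exact Finset.prod_congr rfl fun y _ => Subtype.ext (by simp [c, mul_assoc])
    obtain ⟨w, hw⟩ := hvQ
    have hbez : (1 : ℤ) = Nat.gcdA (Nat.card Q) p * 0 + 1 := by ring
    refine ⟨w ^ Nat.gcdA (Nat.card Q) p * v ^ Nat.gcdB (Nat.card Q) p, ?_⟩
    show (w ^ Nat.gcdA (Nat.card Q) p * v ^ Nat.gcdB (Nat.card Q) p) ^ p = v
    have hb := Nat.gcd_eq_gcd_ab (Nat.card Q) p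
    rw [hcop.gcd_eq_one, Nat.cast_one] at hb
    have hw' : w ^ (p : ℤ) = v ^ (Nat.card Q : ℤ) := by
      rw [zpow_natCast, zpow_natCast]; exact hw
    rw [mul_pow, ← zpow_natCast, ← zpow_natCast (v ^ _) p, ← zpow_mul, ← zpow_mul, mul_comm,
      mul_comm (Nat.gcdA _ _) (p : ℤ), zpow_mul w, hw', ← zpow_mul, ← zpow_add]
    conv_rhs => rw [← zpow_one v]
    congr 1
    linarith
  have hinj := (Finite.injective_iff_surjective).mpr hsurj
  obtain ⟨k, hk⟩ := IsPGroup.iff_card.mp hW
  have hk0 : k ≠ 0 := fun h0 => hW1 (Subgroup.card_eq_one.mp (by rw [hk, h0, pow_zero]))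
  obtain ⟨x, hx⟩ := exists_prime_orderOf_dvd_card' p (show p ∣ Nat.card W by
    rw [hk]; exact dvd_pow_self p hk0)
  have h1 : x = 1 := hinj (show x ^ p = 1 ^ p by rw [one_pow, ← hx, pow_orderOf_eq_one])
  exact hp.out.one_lt.ne' (by rw [← hx, h1, orderOf_one])

/-- The image of a central piece of the `p`-core. -/
theorem exists_abelian_normal {P : Subgroup G} [P.Normal] (hPp : IsPGroup p P) (hP : P ≠ ⊥) :
    ∃ W : Subgroup G, W.Normal ∧ IsMulCommutative W ∧ W ≤ P ∧ W ≠ ⊥ ∧ IsPGroup p W ∧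
      ∀ r ∈ pCore p G, ∀ w ∈ W, r * w * r⁻¹ = w := by
  haveI := Transfer.pCore_normal (G := G) p
  have hPR : P ≤ pCore p G := Transfer.le_pCore inferInstance hPp
  refine ⟨P ⊓ Subgroup.centralizer (pCore p G : Set G), inferInstance, ⟨⟨fun a b => Subtype.ext ?_⟩⟩,
    inf_le_left, ?_, hPp.to_le inf_le_left, fun r hr w hw => ?_⟩
  · exact Subgroup.mem_centralizer_iff.mp b.2.2 a (hPR a.2.1)
  · set R := pCore p G with hR
    have hRp : IsPGroup p R := Transfer.pCore_isPGroup p
    haveI := hRp.isNilpotent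
    haveI : Nontrivial (P.subgroupOf R) := (Subgroup.nontrivial_iff_ne_bot _).mpr fun e => hP (by
      rw [← Subgroup.map_subgroupOf_eq_of_le hPR, e, Subgroup.map_bot])
    have h := Transfer.inf_center_ne_bot hRp (P.subgroupOf R)
      ((Subgroup.nontrivial_iff_ne_bot _).mp inferInstance)
    obtain ⟨z, ⟨hzP, hzc⟩, hz1⟩ := (Subgroup.bot_or_exists_ne_one _).resolve_left h
    intro hbot
    refine hz1 (Subtype.ext ?_)
    show (z : G) = 1
    rw [← Subgroup.mem_bot, ← hbot]
    refine ⟨hzP, Subgroup.mem_centralizer_iff.mpr fun y hy => ?_⟩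
    exact congrArg Subtype.val (Subgroup.mem_center_iff.mp hzc ⟨y, hy⟩)
  · rw [Subgroup.mem_centralizer_iff.mp hw.2 r hr, mul_inv_cancel_right]

/-- The cores of the quotient by the `p`-core are cyclic. -/
theorem isCyclic_pCore_quotient (h : Isolated p G) (hodd : Odd (Nat.card G)) (hO : pCore p G ≠ ⊥)
    [(pCore p G).Normal] (q : ℕ) [Fact q.Prime] (hqp : q ≠ p) :
    IsCyclic (pCore q (G ⧸ pCore p G)) := by
  obtain ⟨W, hWn, hWc, hWR, hW1, hWp, -⟩ :=
    exists_abelian_normal (Transfer.pCore_isPGroup p) hO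
  haveI := hWn
  haveI := hWc
  obtain ⟨S⟩ : Nonempty (Sylow q G) := inferInstance
  haveI := isCyclic_of_isolated h hodd hqp hWp hW1
    (Subgroup.normalizer_eq_top (H := W) ▸ le_top) S.2
  have hle := Transfer.pCore_le_sylow (p := q)
    (S.mapSurjective (QuotientGroup.mk'_surjective (pCore p G)))
  have hmapc : IsCyclic ((S : Subgroup G).map (QuotientGroup.mk' (pCore p G))) :=
    isCyclic_of_surjective _ ((QuotientGroup.mk' (pCore p G)).subgroupMap_surjective S)
  exact @isCyclic_of_injective _ _ _ _ hmapc (Subgroup.inclusion hle)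
    (Subgroup.inclusion_injective hle)

theorem isPStable (h : Isolated p G) (hodd : Odd (Nat.card G)) (hsolv : Group.IsSolvable G)
    (hp2 : p ≠ 2) (hO : pCore p G ≠ ⊥) : IsPStable p G := by
  refine ⟨hp.out.odd_of_ne_two hp2, hO, fun A P hA hP hAP _ hPn hquad => ?_⟩
  rw [pPrimeCore_eq_bot h hO, bot_sup_eq] at hPn
  haveI := hPn
  haveI := Transfer.pCore_normal (G := G) p
  set R := pCore p G with hR
  have hRp : IsPGroup p R := Transfer.pCore_isPGroup p
  set N := Subgroup.normalizer (P : Set G) with hN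
  set π := QuotientGroup.mk' ((Subgroup.centralizer (P : Set G)).subgroupOf N)
  by_cases hP1 : P = ⊥
  · intro x hx
    obtain ⟨y, -, rfl⟩ := hx
    have hy : (y : G) ∈ Subgroup.centralizer (P : Set G) :=
      Subgroup.mem_centralizer_iff.mpr fun z hz => by
        rw [hP1, SetLike.mem_coe, Subgroup.mem_bot] at hz; rw [hz, one_mul, mul_one]
    rw [show π y = 1 from (QuotientGroup.eq_one_iff (N := (Subgroup.centralizer (P : Set G)).subgroupOf N) y).mpr hy]
    exact one_mem _
  suffices hAR : A ≤ R by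
    refine (Subgroup.map_mono (f := π) (show A.subgroupOf N ≤ R.subgroupOf N from
      fun x hx => hAR hx)).trans (Transfer.le_pCore ?_ ?_)
    · exact Subgroup.Normal.map inferInstance _ (QuotientGroup.mk'_surjective _)
    · exact (show IsPGroup p (R.subgroupOf N) from hRp.comap_subtype).map _
  intro a₀ ha₀
  by_contra ha₀R
  -- an element whose `p`-th power lies in the core
  obtain ⟨k, hk⟩ := hA ⟨a₀, ha₀⟩
  have hk' : a₀ ^ (p ^ k) = 1 := congrArg Subtype.val hk
  classical
  have hex : ∃ j, a₀ ^ (p ^ j) ∈ R := ⟨k, by rw [hk']; exact one_mem _⟩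
  obtain ⟨j, hj⟩ := Nat.exists_eq_succ_of_ne_zero (show Nat.find hex ≠ 0 from fun h0 => ha₀R (by
    have := Nat.find_spec hex
    rwa [h0, pow_zero, pow_one] at this))
  set a := a₀ ^ (p ^ j)
  have haA : a ∈ A := pow_mem ha₀ _
  have haR : a ∉ R := Nat.find_min hex (by omega)
  have hapR : a ^ p ∈ R := by
    have := Nat.find_spec hex
    rw [hj, pow_succ, pow_mul] at this
    exact this
  obtain ⟨W, hWn, hWc, hWP, hW1, hWp, hWR⟩ := exists_abelian_normal hP hP1
  haveI := hWn
  haveI := hWc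
  -- the action on the Fitting subgroup of the quotient
  set π₀ := QuotientGroup.mk' R with hπ₀
  haveI : Group.IsSolvable G := hsolv
  haveI : Group.IsSolvable (G ⧸ R) := Group.isSolvable_of_surjective (QuotientGroup.mk'_surjective R)
  have ha1 : π₀ a ≠ 1 := fun e => haR ((QuotientGroup.eq_one_iff a).mp e)
  have hap : (π₀ a) ^ p = 1 := by rw [← map_pow]; exact (QuotientGroup.eq_one_iff _).mpr hapR
  have hcoreQ : pCore p (G ⧸ R) = ⊥ := Solv.pCore_quotient_eq_bot p
  obtain ⟨q, hq, hqp, hnc⟩ : ∃ q : ℕ, q.Prime ∧ q ≠ p ∧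
      π₀ a ∉ Subgroup.centralizer (pCore q (G ⧸ R) : Set (G ⧸ R)) := by
    by_contra hcon
    push Not at hcon
    refine ha1 ?_
    have hle : Cfsg.fittingSubgroup (G ⧸ R) ≤
        Subgroup.centralizer ({π₀ a} : Set (G ⧸ R)) := by
      rw [Solv.fitting_eq_iSup_pCore]
      refine iSup_le fun r => ?_
      by_cases hr : (r : ℕ) = p
      · rw [hr, hcoreQ]; exact bot_le
      · intro y hy
        exact Subgroup.mem_centralizer_singleton_iff.mpr
          (Subgroup.mem_centralizer_iff.mp (hcon r r.2 hr) y hy)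
    have haF : π₀ a ∈ Cfsg.fittingSubgroup (G ⧸ R) :=
      Solv.centralizer_fitting_le (G := G ⧸ R) (Subgroup.mem_centralizer_iff.mpr fun y hy =>
        Subgroup.mem_centralizer_singleton_iff.mp (hle hy))
    have := Solv.le_pCore_of_le_fitting (Subgroup.zpowers_le.mpr haF)
      (IsPGroup.of_card (p := p) (n := 1) (by
        rw [Nat.card_zpowers, pow_one, orderOf_eq_prime hap ha1]))
    rw [hcoreQ] at this
    exact (Subgroup.mem_bot.mp (this (Subgroup.mem_zpowers _)))
  haveI := Fact.mk hq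
  haveI := Transfer.pCore_normal (G := G ⧸ R) q
  set T := (pCore q (G ⧸ R)).comap π₀ with hT
  haveI : T.Normal := Subgroup.Normal.comap inferInstance _
  obtain ⟨Q⟩ : Nonempty (Sylow q T) := inferInstance
  set Q' := (Q : Subgroup T).map T.subtype with hQ'
  have hQp : IsPGroup q Q' := Q.2.map _
  have hmapQ : Q'.map π₀ = pCore q (G ⧸ R) := by
    refine le_antisymm ?_ fun y hy => ?_
    · rintro _ ⟨_, ⟨⟨z, hz⟩, -, rfl⟩, rfl⟩
      exact hz
    · obtain ⟨x, rfl⟩ := QuotientGroup.mk'_surjective R y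
      have hsurjT := π₀.subgroupComap_surjective_of_surjective (pCore q (G ⧸ R))
        (QuotientGroup.mk'_surjective R)
      set Qi := Q.mapSurjective hsurjT
      have htop : (Qi : Subgroup (pCore q (G ⧸ R))) = ⊤ := by
        have hp' := Transfer.pCore_isPGroup (G := G ⧸ R) q
        exact (Qi.3 (hp'.to_subgroup _) le_top).symm
      obtain ⟨w, hw, hw'⟩ : (⟨π₀ x, hy⟩ : pCore q (G ⧸ R)) ∈ (Qi : Subgroup (pCore q (G ⧸ R))) :=
        htop ▸ Subgroup.mem_top _
      exact ⟨(w : G), Subgroup.mem_map_of_mem _ hw, congrArg Subtype.val hw'⟩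
  have hdisj : R ⊓ Q' = ⊥ :=
    disjoint_iff.mp (IsPGroup.disjoint_of_ne p q hqp.symm _ _ hRp hQp)
  -- Frattini argument
  obtain ⟨r, hr, n, hn, hrn⟩ : ∃ r ∈ R, ∃ n ∈ Subgroup.normalizer (Q' : Set G), a = r * n := by
    have hfr := Sylow.normalizer_sup_eq_top Q
    have hx : a ∈ Subgroup.normalizer (Q' : Set G) ⊔ T := by
      rw [hfr]; exact Subgroup.mem_top a
    rw [sup_comm] at hx
    obtain ⟨t, ht, n, hn, htn⟩ := Subgroup.mem_sup_of_normal_left.mp hx
    rw [← htn]
    obtain ⟨q₀, hq₀, hq₀'⟩ : π₀ t ∈ Q'.map π₀ := hmapQ ▸ ht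
    refine ⟨t * q₀⁻¹, (QuotientGroup.eq_one_iff _).mp ?_, q₀ * n,
      mul_mem (Subgroup.le_normalizer hq₀) hn, by group⟩
    show π₀ (t * q₀⁻¹) = 1
    rw [map_mul, map_inv, hq₀', mul_inv_cancel]
  have hπn : π₀ n = π₀ a := by
    rw [hrn, map_mul, show π₀ r = 1 from (QuotientGroup.eq_one_iff r).mpr hr, one_mul]
  have hact : ∀ w ∈ W, a * w * a⁻¹ = n * w * n⁻¹ := by
    intro w hw
    rw [hrn, show r * n * w * (r * n)⁻¹ = r * (n * w * n⁻¹) * r⁻¹ by group]
    exact hWR r hr _ (Subgroup.Normal.conj_mem inferInstance w hw n)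
  have hQcyc : IsCyclic Q' :=
    isCyclic_of_isolated h hodd hqp hWp hW1 (Subgroup.normalizer_eq_top (H := W) ▸ le_top) hQp
  have hnp : n ^ p ∈ R := by
    refine (QuotientGroup.eq_one_iff _).mp ?_
    show π₀ (n ^ p) = 1
    rw [map_pow, hπn, hap]
  have hnpC : ∀ y ∈ Q', n ^ p * y * (n ^ p)⁻¹ = y := by
    intro y hy
    have h1 : n ^ p * y * (n ^ p)⁻¹ * y⁻¹ ∈ R ⊓ Q' := by
      refine ⟨?_, Q'.mul_mem ((Subgroup.mem_normalizer_iff.mp (pow_mem hn p) y).mp hy)
        (Q'.inv_mem hy)⟩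
      rw [show n ^ p * y * (n ^ p)⁻¹ * y⁻¹ = n ^ p * (y * (n ^ p)⁻¹ * y⁻¹) by group]
      exact R.mul_mem hnp (Subgroup.Normal.conj_mem inferInstance _ (R.inv_mem hnp) y)
    rw [hdisj, Subgroup.mem_bot, mul_inv_eq_one] at h1
    exact h1
  have hnq : (orderOf n).Coprime q := by
    obtain ⟨e, he⟩ := IsPGroup.iff_orderOf.mp hRp ⟨n ^ p, hnp⟩
    rw [Subgroup.orderOf_mk] at he
    have : orderOf n ∣ p * p ^ e := by
      refine orderOf_dvd_of_pow_eq_one ?_
      rw [pow_mul, ← he, pow_orderOf_eq_one]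
    exact Nat.Coprime.of_dvd_left this (((Nat.coprime_primes hp.out hq).mpr hqp.symm).mul_left
      (Nat.Coprime.pow_left e ((Nat.coprime_primes hp.out hq).mpr hqp.symm)))
  have hnfix : ∀ y ∈ Q', n * y * n⁻¹ = y → y = 1 := by
    intro y hy hfix
    by_contra hy1
    refine hnc ?_
    have hcen := centralizes_of_fixed hQp hQcyc hn hnq hy hy1 hfix
    refine Subgroup.mem_centralizer_iff.mpr fun z hz => ?_
    obtain ⟨z', hz', rfl⟩ : z ∈ Q'.map π₀ := hmapQ ▸ hz
    rw [← hπn, ← map_mul, ← map_mul, Subgroup.mem_centralizer_iff.mp hcen z' hz']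
  have hq2 : (Nat.card Q').Coprime p := by
    obtain ⟨e, he⟩ := IsPGroup.iff_card.mp hQp
    rw [he]; exact Nat.Coprime.pow_left e ((Nat.coprime_primes hq hp.out).mpr hqp)
  refine no_quadratic hWp hW1 hp2 hq2 hn (fun y hy i hi hip hfix => hnfix y hy ?_) ?_ ?_
  · have h1 : Commute (n ^ i) y := mul_inv_eq_iff_eq_mul.mp hfix
    have h2 : Commute (n ^ p) y := mul_inv_eq_iff_eq_mul.mp (hnpC y hy)
    have hb := Nat.gcd_eq_gcd_ab i p
    rw [((hp.out.coprime_iff_not_dvd.mpr fun hd => (Nat.le_of_dvd hi hd).not_gt hip).symm).gcd_eq_one,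
      Nat.cast_one] at hb
    have h3 : Commute n y := by
      rw [← zpow_one n, hb, zpow_add, zpow_mul, zpow_mul, zpow_natCast, zpow_natCast]
      exact (h1.zpow_left _).mul_left (h2.zpow_left _)
    rw [h3.eq, mul_inv_cancel_right]
  · intro w hw hfix
    by_contra hw1
    obtain ⟨y, hy, hy1⟩ := Q'.bot_or_exists_ne_one.resolve_left fun e => hnc (by
      rw [← hmapQ, e, Subgroup.map_bot]
      exact Subgroup.mem_centralizer_iff.mpr fun z hz => by
        rw [SetLike.mem_coe, Subgroup.mem_bot] at hz; rw [hz, one_mul, mul_one])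
    obtain ⟨i, hi⟩ := h w hw1 (hWp.to_le (Subgroup.zpowers_le.mpr hw))
      ⟨y, Subgroup.mem_centralizer_singleton_iff.mpr (mul_inv_eq_iff_eq_mul.mp (hfix y hy))⟩
    obtain ⟨l, hl⟩ := hQp ⟨y, hy⟩
    exact hy1 (orderOf_eq_one_iff.mp (Nat.eq_one_of_dvd_coprimes
      (Nat.Coprime.pow i l ((Nat.coprime_primes hp.out hq).mpr hqp.symm))
      (orderOf_dvd_of_pow_eq_one (congrArg Subtype.val hi))
      (orderOf_dvd_of_pow_eq_one (congrArg Subtype.val hl))))
  · intro w hw
    have h1 : ⁅w, a⁆ ∈ ⁅P, A⁆ := Subgroup.commutator_mem_commutator (hWP hw) haA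
    have h2 : ⁅⁅w, a⁆, a⁆ = 1 := by
      rw [← Subgroup.mem_bot, ← hquad]
      exact Subgroup.commutator_mem_commutator h1 haA
    have h3 : ⁅w, a⁆ * a = a * ⁅w, a⁆ := commutatorElement_eq_one_iff_mul_comm.mp h2
    have h4 : n * w * n⁻¹ * w⁻¹ = ⁅w, a⁆⁻¹ := by
      rw [← hact w hw, commutatorElement_def]; group
    rw [h4]
    have hmemW : ⁅w, a⁆⁻¹ ∈ W := by
      rw [← h4]
      exact W.mul_mem (Subgroup.Normal.conj_mem inferInstance w hw n) (W.inv_mem hw)
    rw [← hact _ hmemW]
    have h5 : Commute a ⁅w, a⁆⁻¹ := (show Commute a ⁅w, a⁆ from h3.symm).inv_right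
    rw [h5.eq, mul_inv_cancel_right]

/-- A solvable odd group in which `p` is isolated and the Sylow `p`-subgroup is not normal is not
`p`-perfect. -/
theorem sylow_normal_of_le_commutator (h : Isolated p G) (hodd : Odd (Nat.card G))
    (hsolv : Group.IsSolvable G) (hO : pCore p G ≠ ⊥) (P : Sylow p G)
    (hP : (P : Subgroup G) ≤ _root_.commutator G) : (P : Subgroup G).Normal := by
  haveI := Transfer.pCore_normal (G := G) p
  haveI : Group.IsSolvable G := hsolv
  set R := pCore p G with hR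
  set π₀ := QuotientGroup.mk' R with hπ₀
  haveI : Group.IsSolvable (G ⧸ R) := Group.isSolvable_of_surjective (QuotientGroup.mk'_surjective R)
  have hcoreQ : pCore p (G ⧸ R) = ⊥ := Solv.pCore_quotient_eq_bot p
  have hD : _root_.commutator (G ⧸ R) ≤ Cfsg.fittingSubgroup (G ⧸ R) := by
    refine le_trans ?_ (Solv.centralizer_fitting_le (G := G ⧸ R))
    rw [Subgroup.le_centralizer_iff, Solv.fitting_eq_iSup_pCore]
    refine iSup_le fun r => ?_
    by_cases hr : (r : ℕ) = p
    · rw [hr, hcoreQ]; exact bot_le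
    · haveI := Fact.mk r.2
      haveI := Transfer.pCore_normal (G := G ⧸ R) (r : ℕ)
      haveI := isCyclic_pCore_quotient h hodd hO (r : ℕ) hr
      exact Subgroup.le_centralizer_iff.mp
        (Solv.commutator_le_centralizer_cyclic (pCore (r : ℕ) (G ⧸ R)))
  have hPF : (P : Subgroup G).map π₀ ≤ Cfsg.fittingSubgroup (G ⧸ R) := by
    refine le_trans ((Subgroup.map_mono hP).trans ?_) hD
    rw [_root_.commutator_def, Subgroup.map_commutator, Subgroup.map_top_of_surjective _
      (QuotientGroup.mk'_surjective R), _root_.commutator_def]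
  have hbot := Solv.le_pCore_of_le_fitting hPF (P.2.map π₀)
  rw [hcoreQ, le_bot_iff, Subgroup.map_eq_bot_iff, QuotientGroup.ker_mk'] at hbot
  rw [le_antisymm hbot (Transfer.pCore_le_sylow P)]
  infer_instance

/-- The main result: Sylow subgroups for isolated primes are TI. -/
theorem sylow_TI (h : Isolated p G) (hodd : Odd (Nat.card G)) (hp2 : p ≠ 2)
    (hsimple : ∀ N : Subgroup G, N.Normal → N ≠ ⊥ → N = ⊤)
    (hsub : ∀ H : Subgroup G, H ≠ ⊤ → Group.IsSolvable H) (P Q : Sylow p G)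
    (hPQ : (P : Subgroup G) ⊓ (Q : Subgroup G) ≠ ⊥) : P = Q := by
  have hPne : (P : Subgroup G) ≠ ⊥ := ne_bot_of_le_ne_bot hPQ inf_le_left
  by_cases hPtop : (P : Subgroup G) = ⊤
  · exact Sylow.ext (Q.3 P.2 (hPtop ▸ le_top))
  have hloc : ∀ U : Subgroup G, IsPGroup p U → U ≠ ⊥ →
      Subgroup.normalizer (U : Set G) ≠ ⊤ ∧ pCore p ↥(Subgroup.normalizer (U : Set G)) ≠ ⊥ := by
    intro U hU hU1
    refine ⟨fun e => ?_, ?_⟩
    · have htop := hsimple U (Subgroup.normalizer_eq_top_iff.mp e) hU1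
      exact hPtop (P.3 hU (htop ▸ le_top) ▸ htop)
    · set N := Subgroup.normalizer (U : Set G)
      intro e
      haveI : (U.subgroupOf N).Normal := Subgroup.normal_in_normalizer
      have := Transfer.le_pCore (G := N) inferInstance
        (show IsPGroup p (U.subgroupOf N) from hU.comap_subtype)
      rw [e, le_bot_iff] at this
      exact hU1 (by rw [← Subgroup.map_subgroupOf_eq_of_le (Subgroup.le_normalizer (H := U)), this,
        Subgroup.map_bot])
  set M := Subgroup.normalizer (Cfsg.centerThompsonAOf ((P : Subgroup G)) : Set G) with hM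
  have hUM : ∀ U : Subgroup G, U ≤ (P : Subgroup G) → U ≠ ⊥ →
      Subgroup.normalizer (U : Set G) ≤ M := by
    intro U hUP hU1
    rw [hM, PLocal.centerThompsonAOf_eq]
    refine PLocal.local_le_normalizer hp2 (fun V hV hV1 => ?_) P U hUP hU1
    obtain ⟨hne, hcore⟩ := hloc V hV hV1
    have hiso := isolated_subgroup h (Subgroup.normalizer (V : Set G))
    have hoddN := hodd.of_dvd_nat (Subgroup.normalizer (V : Set G)).card_subgroup_dvd_card
    exact ⟨pPrimeCore_eq_bot hiso hcore, isPConstrained hiso hcore,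
      isPStable hiso hoddN (hsub _ hne) hp2 hcore⟩
  have hPM : (P : Subgroup G) ≤ M := Subgroup.le_normalizer.trans (hUM _ le_rfl hPne)
  -- strong embedding
  have hstrong : ∀ n, ∀ g : G, Nat.card (P : Subgroup G) ≤
      Nat.card ↥((P : Subgroup G) ⊓ ((g • P : Sylow p G) : Subgroup G)) + n →
      (P : Subgroup G) ⊓ ((g • P : Sylow p G) : Subgroup G) ≠ ⊥ → g ∈ M := by
    intro n
    induction n using Nat.strong_induction_on with
    | _ n ih =>
    intro g hg hne
    set D := (P : Subgroup G) ⊓ ((g • P : Sylow p G) : Subgroup G)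
    rcases eq_or_lt_of_le (inf_le_right : D ≤ ((g • P : Sylow p G) : Subgroup G)) with heq | hlt
    · have h1 : ((g • P : Sylow p G) : Subgroup G) ≤ P := heq ▸ inf_le_left
      have h2 : (g • P : Sylow p G) = P := Sylow.ext ((g • P).3 P.2 h1).symm
      exact hUM _ le_rfl hPne (Sylow.smul_eq_iff_mem_normalizer.mp h2)
    · have hlt' := Transfer.lt_inf_normalizer hlt
      set T := ((g • P : Sylow p G) : Subgroup G) ⊓ Subgroup.normalizer (D : Set G)
      have hTM : T ≤ M := inf_le_right.trans (hUM D inf_le_left hne)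
      have hTp : IsPGroup p T := (g • P : Sylow p G).2.to_le inf_le_left
      obtain ⟨S, hS⟩ := (show IsPGroup p (T.subgroupOf M) from hTp.comap_subtype).exists_le_sylow
      obtain ⟨m, hm⟩ := MulAction.exists_smul_eq M (P.subtype hPM) S
      have hTm : T ≤ (((m : G) • P : Sylow p G) : Subgroup G) := by
        intro t ht
        have h1 : (⟨t, hTM ht⟩ : M) ∈ (m • P.subtype hPM : Sylow p M) := hm.symm ▸ hS ht
        rw [← SetLike.mem_coe, Sylow.coe_smul] at h1
        obtain ⟨y, hy, hy'⟩ := h1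
        exact ⟨(y : G), hy, congrArg Subtype.val hy'⟩
      -- shift by `m`
      set g' := (m : G)⁻¹ * g
      set D' := (P : Subgroup G) ⊓ ((g' • P : Sylow p G) : Subgroup G)
      have hmapT : T.map (MulAut.conj (m : G)⁻¹).toMonoidHom ≤ D' := by
        rintro _ ⟨t, ht, rfl⟩
        refine ⟨?_, ?_⟩
        · obtain ⟨y, hy, hy'⟩ := hTm ht
          have : MulAut.conj (m : G)⁻¹ t = y := by
            rw [← hy']; simp [MulAut.conj_apply, mul_assoc]
          show MulAut.conj (m : G)⁻¹ t ∈ (P : Subgroup G)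
          rw [this]; exact hy
        · obtain ⟨y, hy, hy'⟩ := ht.1
          refine ⟨y, hy, ?_⟩
          show MulAut.conj g' y = MulAut.conj (m : G)⁻¹ t
          rw [← hy']
          simp [g', MulAut.conj_apply, mul_assoc]
      have hcard : Nat.card D < Nat.card D' := by
        refine lt_of_lt_of_le ?_ (Subgroup.card_le_of_le hmapT)
        rw [Subgroup.card_map_of_injective (MulEquiv.injective _)]
        exact lt_of_le_of_ne (Subgroup.card_le_of_le hlt'.le)
          fun e => hlt'.ne (Subgroup.eq_of_le_of_card_ge hlt'.le e.ge)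
      have hD'le : Nat.card D' ≤ Nat.card (P : Subgroup G) := Subgroup.card_le_of_le inf_le_left
      have hg' : g' ∈ M := ih (n - 1) (by omega) g' (by
          show Nat.card (P : Subgroup G) ≤ Nat.card D' + (n - 1); omega) fun e => by
        rw [show D' = ⊥ from e, Subgroup.card_bot] at hcard
        exact (Nat.card_pos (α := D)).not_ge (by omega)
      simpa [g'] using M.mul_mem m.2 hg'
  obtain ⟨g, rfl⟩ := MulAction.exists_smul_eq G P Q
  by_cases hPnM : ((P : Subgroup G).subgroupOf M).Normal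
  · have hgM : g ∈ M := hstrong (Nat.card (P : Subgroup G)) g (by omega) hPQ
    refine (Sylow.smul_eq_iff_mem_normalizer.mpr ?_).symm
    refine Subgroup.mem_normalizer_iff.mpr ?_
    intro y
    constructor
    · intro hy
      have := hPnM.conj_mem ⟨y, hPM hy⟩ hy ⟨g, hgM⟩
      exact this
    · intro hy
      have := hPnM.conj_mem ⟨g * y * g⁻¹, hPM hy⟩ hy ⟨g, hgM⟩⁻¹
      rw [Subgroup.mem_subgroupOf] at this
      simpa [mul_assoc] using this
  · exfalso
    refine hPnM ?_
    have hcontrol : ∀ x ∈ (P : Subgroup G), ∀ y ∈ (P : Subgroup G),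
        (∃ g : G, g * x * g⁻¹ = y) → ∃ m ∈ M, m * x * m⁻¹ = y := by
      rintro x hx y hy ⟨k, hk⟩
      by_cases hx1 : x = 1
      · exact ⟨1, M.one_mem, by rw [← hk, hx1]; group⟩
      refine ⟨k, hstrong (Nat.card (P : Subgroup G)) k (by omega) fun e => ?_, hk⟩
      have hyk : y ∈ ((P : Subgroup G) ⊓ ((k • P : Sylow p G) : Subgroup G)) :=
        ⟨hy, ⟨x, hx, by simp [← hk, MulAut.conj_apply]⟩⟩
      rw [e, Subgroup.mem_bot] at hyk
      exact hx1 (conj_eq_one_iff.mp (hk.trans hyk))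
    have hres : pResidual p G = ⊤ := by
      refine hsimple _ (Transfer.pResidual_normal p) fun e => hPtop ?_
      obtain ⟨k, hk⟩ := Transfer.exists_index_pResidual_eq_pow (G := G) (p := p)
      rw [e, Subgroup.index_bot] at hk
      exact Subgroup.eq_top_of_card_eq _ (by
        rw [P.card_eq_multiplicity, hk, Nat.factorization_pow_self hp.out])
    have hPfoc : (P : Subgroup G) ≤ ⁅(P : Subgroup G), M⁆ := by
      refine le_trans ?_ (Transfer.focalSubgroup_le_commutator_of_control hcontrol)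
      refine le_trans ?_ (Transfer.inf_pResidual_le_focal P)
      rw [hres, inf_top_eq]
    have hne := hloc (P : Subgroup G) P.2 hPne
    have hMne : M ≠ ⊤ := by
      have hZ : Cfsg.centerThompsonAOf (P : Subgroup G) ≤ P := by
        rw [PLocal.centerThompsonAOf_eq]; exact PLocal.zF_le PLocal.ab_bot _
      intro e
      have hn := Subgroup.normalizer_eq_top_iff.mp (hM ▸ e)
      have hz : Cfsg.centerThompsonAOf (P : Subgroup G) ≠ ⊥ := by
        rw [PLocal.centerThompsonAOf_eq]; exact PLocal.zF_ne_bot P.2 hPne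
      exact hPtop (top_le_iff.mp ((hsimple _ hn hz).ge.trans hZ))
    have hcoreM : pCore p M ≠ ⊥ := by
      intro e
      set Z := Cfsg.centerThompsonAOf (P : Subgroup G)
      have hZ : Z ≤ P := by rw [show Z = _ from PLocal.centerThompsonAOf_eq _]; exact PLocal.zF_le PLocal.ab_bot _
      haveI : (Z.subgroupOf M).Normal := Subgroup.normal_in_normalizer
      have := Transfer.le_pCore (G := M) inferInstance
        (show IsPGroup p (Z.subgroupOf M) from (P.2.to_le hZ).comap_subtype)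
      rw [e, le_bot_iff] at this
      have hz : Z = ⊥ := by
        rw [← Subgroup.map_subgroupOf_eq_of_le (Subgroup.le_normalizer (H := Z)), this,
          Subgroup.map_bot]
      rw [show Z = _ from PLocal.centerThompsonAOf_eq _] at hz
      exact PLocal.zF_ne_bot P.2 hPne hz
    have := sylow_normal_of_le_commutator (isolated_subgroup h M)
      (hodd.of_dvd_nat M.card_subgroup_dvd_card) (hsub M hMne) hcoreM (P.subtype hPM) ?_
    · rwa [Sylow.coe_subtype] at this
    · rw [Sylow.coe_subtype, ← Subgroup.map_le_map_iff_of_injective M.subtype_injective,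
        Subgroup.map_subgroupOf_eq_of_le hPM, _root_.commutator_def, Subgroup.map_commutator,
        ← MonoidHom.range_eq_map, Subgroup.range_subtype]
      exact hPfoc.trans (Subgroup.commutator_mono hPM le_rfl)

end Cfsg.Lib.CNOdd
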