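import Cfsg.Agent.Lib.Characters.CN.Isolated
import Cfsg.Agent.Lib.Characters.CoprimeCoset
import Cfsg.Agent.Lib.Solv.MinimalNonNilpotent
import Cfsg.Agent.Lib.Solv.Coprime2
import Cfsg.Agent.Lib.Transfer.Action
import Cfsg.Prelude.Def_LieExceptional

/-!
# CN-groups of odd order: quotients, Sylow subgroups and their centralisers
-/

set_option autoImplicit false
set_option linter.unusedSectionVars false
set_option linter.style.haveILetI false

namespace Cfsg.Lib.CNOdd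

universe u

variable {G : Type u} [Group G] [Finite G]

theorem mem_cen {x y : G} : y ∈ Subgroup.centralizer ({x} : Set G) ↔ Commute y x :=
  Subgroup.mem_centralizer_singleton_iff

theorem isNilpotent_map {G' : Type u} [Group G'] {H : Subgroup G} (hH : Group.IsNilpotent H)
    (f : G →* G') : Group.IsNilpotent (H.map f) :=
  have := hH
  Group.nilpotent_of_surjective (f.subgroupMap H) (f.subgroupMap_surjective H)

theorem isCN_subgroup (h : Cfsg.IsCNGroup G) (H : Subgroup G) : Cfsg.IsCNGroup H := by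
  intro x hx
  have hn := h (x : G) (fun e => hx (Subtype.ext e))
  haveI := Solv.isNilpotent_of_le (show (Subgroup.centralizer ({x} : Set H)).map H.subtype ≤
      Subgroup.centralizer ({(x : G)} : Set G) from by
    rintro _ ⟨y, hy, rfl⟩
    exact mem_cen.mpr ((mem_cen.mp hy).map H.subtype)) hn
  exact Group.nilpotent_of_mulEquiv
    ((Subgroup.centralizer ({x} : Set H)).equivMapOfInjective H.subtype H.subtype_injective).symm

theorem pow_of_mem {p : ℕ} [Fact p.Prime] {H : Subgroup G} (hH : IsPGroup p H) {a : G}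
    (ha : a ∈ H) : ∃ i, orderOf a = p ^ i := by
  obtain ⟨i, hi⟩ := IsPGroup.iff_orderOf.1 hH ⟨a, ha⟩
  exact ⟨i, by rwa [Subgroup.orderOf_mk] at hi⟩

theorem zpowers_isPGroup {p i : ℕ} {a : G} (ha : orderOf a = p ^ i) :
    IsPGroup p (Subgroup.zpowers a) :=
  IsPGroup.of_card (n := i) (by rw [Nat.card_zpowers, ha])

theorem exists_sylow_mem {p i : ℕ} [Fact p.Prime] {a : G} (ha : orderOf a = p ^ i) :
    ∃ P : Sylow p G, a ∈ (P : Subgroup G) := by
  obtain ⟨P, hP⟩ := (zpowers_isPGroup ha).exists_le_sylow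
  exact ⟨P, hP (Subgroup.mem_zpowers a)⟩

theorem exists_center {p : ℕ} [Fact p.Prime] (P : Sylow p G) (hP : (P : Subgroup G) ≠ ⊥) :
    ∃ z ∈ (P : Subgroup G), z ≠ 1 ∧ ∀ a ∈ (P : Subgroup G), Commute a z := by
  haveI : Nontrivial P := (Subgroup.nontrivial_iff_ne_bot _).mpr hP
  haveI := P.2.center_nontrivial
  obtain ⟨z, hz⟩ := exists_ne (1 : Subgroup.center P)
  exact ⟨((z : P) : G), (z : P).2, fun he => hz (Subtype.ext (Subtype.ext he)), fun a ha =>
    congrArg Subtype.val (Subgroup.mem_center_iff.mp z.2 ⟨a, ha⟩)⟩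

theorem mem_of_nilpotent {p : ℕ} [Fact p.Prime] {C : Subgroup G} (hC : Group.IsNilpotent C)
    (P : Sylow p G) (hPC : (P : Subgroup G) ≤ C) {a : G} (ha : a ∈ C) {i : ℕ}
    (hap : orderOf a = p ^ i) : a ∈ (P : Subgroup G) := by
  haveI := hC
  have hn := Solv.normal_sylow_of_nilpotent (P.subtype hPC)
  have hle : Subgroup.zpowers a ≤ Subgroup.normalizer ((P : Subgroup G) : Set G) := by
    rw [Subgroup.zpowers_le]
    refine Subgroup.mem_normalizer_iff.mpr fun y => ⟨fun hy => ?_, fun hy => ?_⟩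
    · exact hn.conj_mem ⟨y, hPC hy⟩ hy ⟨a, ha⟩
    · have h1 : a⁻¹ * (a * y * a⁻¹) * a⁻¹⁻¹ ∈ (P : Subgroup G) :=
        hn.conj_mem ⟨a * y * a⁻¹, hPC hy⟩ hy ⟨a, ha⟩⁻¹
      rwa [show a⁻¹ * (a * y * a⁻¹) * a⁻¹⁻¹ = y by group] at h1
  have h2 := P.3 (P.2.to_sup_of_normal_left' (zpowers_isPGroup hap) hle) le_sup_left
  exact h2 ▸ (Subgroup.mem_sup_right (Subgroup.mem_zpowers a))

theorem commute_of_cen (h : Cfsg.IsCNGroup G) {x a b : G} (hx : x ≠ 1) {p q i j : ℕ}
    [hp : Fact p.Prime] [hq : Fact q.Prime] (hpq : p ≠ q) (ha : Commute a x) (hb : Commute b x)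
    (hap : orderOf a = p ^ i) (hbq : orderOf b = q ^ j) : Commute a b :=
  Solv.commute_of_nilpotent_subgroup (h x hx) hp.out hq.out hpq (mem_cen.mpr ha) (mem_cen.mpr hb)
    hap hbq

/-- Sylow subgroups through commuting elements of coprime prime power order commute. -/
theorem comm_sylow (h : Cfsg.IsCNGroup G) {p q : ℕ} [hp : Fact p.Prime] [hq : Fact q.Prime]
    (hpq : p ≠ q) {x y : G} (hx1 : x ≠ 1) (hy1 : y ≠ 1) (hc : Commute x y)
    (P : Sylow p G) (Q : Sylow q G) (hxP : x ∈ (P : Subgroup G)) (hyQ : y ∈ (Q : Subgroup G)) :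
    ∀ a ∈ (P : Subgroup G), ∀ b ∈ (Q : Subgroup G), Commute a b := by
  intro a ha b hb
  obtain ⟨z, hzP, hz1, hzc⟩ := exists_center P fun e => hx1 (by
    rw [e, Subgroup.mem_bot] at hxP; exact hxP)
  obtain ⟨w, hwQ, hw1, hwc⟩ := exists_center Q fun e => hy1 (by
    rw [e, Subgroup.mem_bot] at hyQ; exact hyQ)
  obtain ⟨i, hi⟩ := pow_of_mem Q.2 hyQ
  obtain ⟨j, hj⟩ := pow_of_mem P.2 hzP
  obtain ⟨k, hk⟩ := pow_of_mem P.2 ha
  obtain ⟨l, hl⟩ := pow_of_mem Q.2 hwQ
  obtain ⟨m, hm⟩ := pow_of_mem Q.2 hb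
  have h1 : Commute z y := commute_of_cen h hx1 hpq (hzc x hxP).symm hc.symm hj hi
  have h2 : Commute a y := commute_of_cen h hz1 hpq (hzc a ha) h1.symm hk hi
  have h3 : Commute a w := commute_of_cen h hy1 hpq h2 (hwc y hyQ).symm hk hl
  exact commute_of_cen h hw1 hpq h3 (hwc b hb) hk hm

/-- Sylow subgroups are TI in a simple CN-group of odd order. -/
theorem sylow_TI_all (h : Cfsg.IsCNGroup G) (hodd : Odd (Nat.card G))
    (hsimple : ∀ N : Subgroup G, N.Normal → N ≠ ⊥ → N = ⊤)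
    (hsub : ∀ H : Subgroup G, H ≠ ⊤ → Group.IsSolvable H) {p : ℕ} [hp : Fact p.Prime]
    (P P' : Sylow p G) (hne : (P : Subgroup G) ⊓ (P' : Subgroup G) ≠ ⊥) : P = P' := by
  by_cases hiso : Isolated p G
  · refine sylow_TI hiso hodd ?_ hsimple hsub P P' hne
    rintro rfl
    obtain ⟨n, hn⟩ := IsPGroup.iff_card.mp P.2
    have ho := hodd.of_dvd_nat (P : Subgroup G).card_subgroup_dvd_card
    rw [hn] at ho
    have hn0 : n ≠ 0 := fun h0 => ne_bot_of_le_ne_bot hne inf_le_left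
      (Subgroup.card_eq_one.mp (by rw [hn, h0, pow_zero]))
    exact (Nat.not_even_iff_odd.mpr ho) (Nat.even_pow.mpr ⟨even_two, hn0⟩)
  · simp only [Isolated, not_forall] at hiso
    obtain ⟨x, hx1, hxp, hC⟩ := hiso
    obtain ⟨q, hq, hqp, hqd⟩ : ∃ q, q.Prime ∧ q ≠ p ∧
        q ∣ Nat.card (Subgroup.centralizer ({x} : Set G)) := by
      by_contra hcon
      push Not at hcon
      exact hC (IsPGroup.of_card (Nat.eq_prime_pow_of_unique_prime_dvd Nat.card_pos.ne'
        fun {d} hd hdd => by_contra fun hne' => hcon d hd hne' hdd))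
    haveI := Fact.mk hq
    obtain ⟨y, hy⟩ := exists_prime_orderOf_dvd_card' q hqd
    have hyq : orderOf (y : G) = q ^ 1 := by rw [Subgroup.orderOf_coe, hy, pow_one]
    have hy1 : (y : G) ≠ 1 := fun e => hq.one_lt.ne' (by
      rw [← hy, ← Subgroup.orderOf_coe, e, orderOf_one])
    obtain ⟨i, hi⟩ := pow_of_mem hxp (Subgroup.mem_zpowers x)
    obtain ⟨P₀, hxP⟩ := exists_sylow_mem hi
    obtain ⟨Q₀, hyQ⟩ := exists_sylow_mem hyq
    have hcomm := comm_sylow h hqp.symm hx1 hy1 (mem_cen.mp y.2).symm P₀ Q₀ hxP hyQ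
    obtain ⟨g, hg⟩ := MulAction.exists_smul_eq G P₀ P
    have hy'q : orderOf (g * (y : G) * g⁻¹) = q ^ 1 :=
      (orderOf_injective (MulAut.conj g).toMonoidHom (MulEquiv.injective _) (y : G)).trans hyq
    have hy'1 : g * (y : G) * g⁻¹ ≠ 1 := fun e => hy1 (conj_eq_one_iff.mp e)
    have hy'P : ∀ a ∈ (P : Subgroup G), Commute a (g * (y : G) * g⁻¹) := by
      intro a ha
      rw [← hg] at ha
      obtain ⟨a₀, ha₀, rfl⟩ := ha
      exact (hcomm a₀ ha₀ _ hyQ).map (MulAut.conj g).toMonoidHom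
    obtain ⟨a, ⟨haP, haP'⟩, ha1⟩ := (Subgroup.bot_or_exists_ne_one _).resolve_left hne
    obtain ⟨Q, hQ⟩ := exists_sylow_mem hy'q
    have hcomm' := comm_sylow h hqp.symm ha1 hy'1 (hy'P a haP) P' Q haP' hQ
    have hle : (P' : Subgroup G) ≤ (P : Subgroup G) := by
      intro b hb
      obtain ⟨k, hk⟩ := pow_of_mem P'.2 hb
      exact mem_of_nilpotent (h _ hy'1) P (fun c hc => mem_cen.mpr (hy'P c hc))
        (mem_cen.mpr (hcomm' b hb _ hQ)) hk
    exact Sylow.ext (P'.3 P.2 hle)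

/-- The quotient of a CN-group by a normal `p`-subgroup is CN. -/
theorem isCN_quotient (h : Cfsg.IsCNGroup G) {p : ℕ} [hp : Fact p.Prime] {R : Subgroup G}
    [R.Normal] (hR : IsPGroup p R) (hR1 : R ≠ ⊥) : Cfsg.IsCNGroup (G ⧸ R) := by
  suffices hmain : ∀ (q : ℕ) (x : G ⧸ R), q.Prime → orderOf x = q →
      Group.IsNilpotent (Subgroup.centralizer ({x} : Set (G ⧸ R))) by
    intro x hx
    obtain ⟨q, hq, hqd⟩ := Nat.exists_prime_and_dvd (n := orderOf x)
      (fun e => hx (orderOf_eq_one_iff.mp e))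
    refine Solv.isNilpotent_of_le (fun y hy => mem_cen.mpr ((mem_cen.mp hy).pow_right
      (orderOf x / q))) (hmain q (x ^ (orderOf x / q)) hq ?_)
    rw [orderOf_pow_of_dvd (Nat.div_pos (Nat.le_of_dvd (orderOf_pos x) hqd) hq.pos).ne'
      (Nat.div_dvd_of_dvd hqd), Nat.div_div_self hqd (orderOf_pos x).ne']
  intro q x hq hx
  haveI := Fact.mk hq
  set π := QuotientGroup.mk' R
  obtain ⟨g₀, hg₀⟩ := QuotientGroup.mk'_surjective R x
  obtain ⟨n, hn⟩ := IsPGroup.iff_card.mp hR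
  have hg₀pow : g₀ ^ (q * p ^ n) = 1 := by
    have h1 : g₀ ^ q ∈ R := by
      refine (QuotientGroup.eq_one_iff _).mp ?_
      show π (g₀ ^ q) = 1
      rw [map_pow, hg₀, ← hx, pow_orderOf_eq_one]
    rw [pow_mul, ← hn]
    exact orderOf_dvd_iff_pow_eq_one.mp (Subgroup.orderOf_dvd_natCard R h1)
  by_cases hqp : q = p
  · subst hqp
    have hg1 : π g₀ ≠ 1 := fun e => hq.one_lt.ne' (by rw [← hx, ← hg₀, e, orderOf_one])
    set C := (Subgroup.centralizer ({x} : Set (G ⧸ R))).comap π with hC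
    set T := (Subgroup.zpowers x).comap π with hT
    have hTp : IsPGroup q T := (zpowers_isPGroup (i := 1) (by rw [hx, pow_one])).comap_of_ker_isPGroup
      π (by rw [QuotientGroup.ker_mk']; exact hR)
    have hTC : T ≤ C := by
      intro t ht
      obtain ⟨i, hi⟩ := Subgroup.mem_zpowers_iff.mp ht
      show π t ∈ Subgroup.centralizer ({x} : Set (G ⧸ R))
      rw [← hi]
      exact mem_cen.mpr (Commute.zpow_left (Commute.refl x) i)
    haveI : (T.subgroupOf C).Normal := ⟨fun t ht c => by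
      obtain ⟨i, hi⟩ := Subgroup.mem_zpowers_iff.mp ht
      show π ((c : G) * (t : G) * (c : G)⁻¹) ∈ Subgroup.zpowers x
      rw [map_mul, map_mul, map_inv, show π (c : G) * π (t : G) = π (t : G) * π (c : G) from by
          change x ^ i = π (t : G) at hi
          rw [← hi]; exact ((mem_cen.mp c.2).zpow_right i).eq,
        mul_inv_cancel_right]
      exact ⟨i, hi⟩⟩
    obtain ⟨S⟩ : Nonempty (Sylow q C) := inferInstance
    have hTS : T.subgroupOf C ≤ (S : Subgroup C) :=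
      (Transfer.le_pCore inferInstance (show IsPGroup q (T.subgroupOf C) from hTp.comap_subtype)).trans
        (Transfer.pCore_le_sylow S)
    obtain ⟨P, hP⟩ := (S.2.map C.subtype).exists_le_sylow
    have hTP : T ≤ (P : Subgroup G) := fun t ht =>
      hP ⟨⟨t, hTC ht⟩, hTS ht, rfl⟩
    have hRT : R ≤ T := fun r hr => by
      show π r ∈ Subgroup.zpowers x
      rw [show π r = 1 from (QuotientGroup.eq_one_iff r).mpr hr]; exact one_mem _
    obtain ⟨z, hzP, hz1, hzc⟩ := exists_center P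
      (ne_bot_of_le_ne_bot hR1 (hRT.trans hTP))
    suffices hCz : C ≤ Subgroup.centralizer ({z} : Set G) by
      refine Solv.isNilpotent_of_le ?_ (isNilpotent_map (Solv.isNilpotent_of_le hCz (h z hz1)) π)
      rw [hC, Subgroup.map_comap_eq_self_of_surjective (QuotientGroup.mk'_surjective R)]
    rw [← Subgroup.subgroupOf_eq_top]
    refine Solv.eq_top_of_forall_sylow_le fun r hr _ => ?_
    by_cases hrq : r = q
    · subst hrq
      exact ⟨S, fun s hs => mem_cen.mpr (hzc _ (hP ⟨s, hs, rfl⟩))⟩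
    haveI := Fact.mk hr
    obtain ⟨U⟩ : Nonempty (Sylow r C) := inferInstance
    refine ⟨U, fun u hu => ?_⟩
    obtain ⟨k, hk⟩ := pow_of_mem U.2 hu
    rw [← Subgroup.orderOf_coe] at hk
    have hfix : ∀ b ∈ Subgroup.zpowers (u : G), b * g₀ * b⁻¹ * g₀⁻¹ ∈ R := by
      intro b hb
      refine (QuotientGroup.eq_one_iff _).mp ?_
      show π (b * g₀ * b⁻¹ * g₀⁻¹) = 1
      have hbC : b ∈ C := (Subgroup.zpowers_le.mpr u.2) hb
      rw [map_mul, map_mul, map_mul, map_inv, map_inv, hg₀, (mem_cen.mp hbC).eq]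
      group
    have hrR : ¬ r ∣ Nat.card R := by
      rw [hn]
      exact fun hd => hrq ((Nat.prime_dvd_prime_iff_eq hr hq).mp (hr.dvd_of_dvd_pow hd))
    obtain ⟨c, ⟨-, hc⟩, hcR⟩ := Solv.exists_fixed_in_coset (K := ⊤) (zpowers_isPGroup hk) le_top
      (le_top.trans (Subgroup.normalizer_eq_top (H := R)).ge) (le_top.trans (Subgroup.normalizer_eq_top (H := R)).ge)
      hrR (Subgroup.mem_top g₀) hfix
    have hcP : c ∈ (P : Subgroup G) := by
      have : c = g₀ * (g₀⁻¹ * c) := by group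
      rw [this]
      refine mul_mem (hTP ?_) ((hRT.trans hTP) hcR)
      show π g₀ ∈ Subgroup.zpowers x
      rw [hg₀]; exact Subgroup.mem_zpowers x
    have hc1 : c ≠ 1 := fun e => hg1 ((QuotientGroup.eq_one_iff g₀).mpr (by
      rw [e, mul_one] at hcR; exact (R.inv_mem_iff).mp hcR))
    obtain ⟨l, hl⟩ := pow_of_mem P.2 hzP
    exact mem_cen.mpr (commute_of_cen h hc1 hrq
      (Subgroup.mem_centralizer_iff.mp hc _ (Subgroup.mem_zpowers (u : G)))
      (hzc c hcP).symm hk hl)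
  · have hcop : Nat.Coprime q (p ^ n) :=
      Nat.Coprime.pow_right n ((Nat.coprime_primes hq hp.out).mpr hqp)
    obtain ⟨e, he1, he0⟩ := Characters.exists_piExp hcop
    set g := g₀ ^ e
    have hgq : g ^ q = 1 := Characters.piExp_pow_left he0 hg₀pow
    have hgx : π g = x := by
      rw [map_pow, hg₀]
      exact Characters.pow_piExp_of_left he1 (by rw [← hx, pow_orderOf_eq_one])
    have hg1 : g ≠ 1 := fun e' => hq.one_lt.ne' (by rw [← hx, ← hgx, e', map_one, orderOf_one])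
    refine Solv.isNilpotent_of_le ?_ (isNilpotent_map (h g hg1) π)
    intro y hy
    obtain ⟨y, rfl⟩ := QuotientGroup.mk'_surjective R y
    have hyR : y * g * y⁻¹ * g⁻¹ ∈ R := by
      refine (QuotientGroup.eq_one_iff _).mp ?_
      show π (y * g * y⁻¹ * g⁻¹) = 1
      have hy' : π y * x = x * π y := (mem_cen.mp hy).eq
      rw [map_mul, map_mul, map_mul, map_inv, map_inv, hgx, hy']
      group
    have hgcop : Nat.Coprime (orderOf g) (Nat.card R) := by
      rw [orderOf_eq_prime hgq hg1, hn]; exact hcop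
    obtain ⟨m, hm, c, hc, hcg, heq, -⟩ := Characters.exists_conj_coprime_coset
      (N := R) (x := g) (Subgroup.normalizer_eq_top (H := R) ▸ Subgroup.mem_top g) hgcop hyR
    have hc1 : c = 1 := by
      have h1 : (c * g) ^ q = 1 := by
        rw [← heq, conj_pow, show y * g * y⁻¹ * g⁻¹ * g = y * g * y⁻¹ by group, conj_pow, hgq]
        group
      rw [(show Commute c g from hcg).mul_pow, hgq, mul_one] at h1
      refine orderOf_eq_one_iff.mp (Nat.eq_one_of_dvd_coprimes hcop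
        (orderOf_dvd_of_pow_eq_one h1) ?_)
      rw [← hn]; exact Subgroup.orderOf_dvd_natCard R hc
    refine ⟨m * y, mem_cen.mpr (mul_inv_eq_iff_eq_mul.mp ?_), ?_⟩
    · calc m * y * g * (m * y)⁻¹ = m * (y * g * y⁻¹ * g⁻¹ * g) * m⁻¹ := by group
        _ = g := by rw [heq, hc1, one_mul]
    · rw [map_mul, show π m = 1 from (QuotientGroup.eq_one_iff m).mpr hm, one_mul]

/-- `A` is the centraliser of a central element of a Sylow subgroup. -/
def IsHall (A : Subgroup G) : Prop :=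
  ∃ p : ℕ, p.Prime ∧ ∃ P : Sylow p G, ∃ z ∈ (P : Subgroup G), z ≠ 1 ∧
    (∀ a ∈ (P : Subgroup G), Commute a z) ∧ A = Subgroup.centralizer ({z} : Set G)

/-- Sylow subgroups are TI. -/
def SylowTI (G : Type u) [Group G] : Prop :=
  ∀ (p : ℕ) (_ : p.Prime) (P P' : Sylow p G),
    (P : Subgroup G) ⊓ (P' : Subgroup G) ≠ ⊥ → P = P'

theorem mem_sylow_of_commute (hTI : SylowTI G) {p i : ℕ} [hp : Fact p.Prime] (P : Sylow p G)
    {x u : G} (hxP : x ∈ (P : Subgroup G)) (hx1 : x ≠ 1) (hc : Commute u x)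
    (hu : orderOf u = p ^ i) : u ∈ (P : Subgroup G) := by
  obtain ⟨j, hj⟩ := pow_of_mem P.2 hxP
  have hle : Subgroup.zpowers u ≤ Subgroup.normalizer ((Subgroup.zpowers x : Subgroup G) : Set G) :=
    (Subgroup.zpowers_le.mpr (Subgroup.mem_centralizer_iff.mpr fun y hy => by
      obtain ⟨k, rfl⟩ := hy
      exact ((hc.zpow_right k).eq).symm)).trans (Subgroup.centralizer_le_normalizer _)
  obtain ⟨P', hP'⟩ :=
    ((zpowers_isPGroup hj).to_sup_of_normal_left' (zpowers_isPGroup hu) hle).exists_le_sylow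
  rw [hTI p hp.out P P' fun e => hx1 (by
    have h1 : x ∈ (P : Subgroup G) ⊓ (P' : Subgroup G) :=
      ⟨hxP, hP' (Subgroup.mem_sup_left (Subgroup.mem_zpowers x))⟩
    rwa [e, Subgroup.mem_bot] at h1)]
  exact hP' (Subgroup.mem_sup_right (Subgroup.mem_zpowers u))

theorem cen_le (h : Cfsg.IsCNGroup G) (hTI : SylowTI G) {p : ℕ} [hp : Fact p.Prime] (P : Sylow p G)
    {z : G} (hzP : z ∈ (P : Subgroup G)) (hzc : ∀ a ∈ (P : Subgroup G), Commute a z) {x : G}
    (hxP : x ∈ (P : Subgroup G)) (hx1 : x ≠ 1) :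
    Subgroup.centralizer ({x} : Set G) ≤ Subgroup.centralizer ({z} : Set G) := by
  intro u hu
  refine Transfer.mem_of_forall_pow_ordCompl_mem fun r hr => mem_cen.mpr ?_
  haveI := Fact.mk hr
  set v := u ^ ordCompl[r] (orderOf u)
  have hv : orderOf v = r ^ (orderOf u).factorization r := by
    rw [orderOf_pow_of_dvd (Nat.ordCompl_pos r (orderOf_pos u).ne').ne' (Nat.ordCompl_dvd _ _),
      Nat.div_div_self (Nat.ordProj_dvd _ _) (orderOf_pos u).ne']
  have hvx : Commute v x := (mem_cen.mp hu).pow_left _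
  by_cases hrp : r = p
  · subst hrp
    exact hzc v (mem_sylow_of_commute hTI P hxP hx1 hvx hv)
  · by_cases hv1 : v = 1
    · rw [hv1]; exact Commute.one_left z
    obtain ⟨R, hvR⟩ := exists_sylow_mem hv
    exact (comm_sylow h (Ne.symm hrp) hx1 hv1 hvx.symm P R hxP hvR z hzP v hvR).symm

theorem cen_half (h : Cfsg.IsCNGroup G) {p q : ℕ} [hp : Fact p.Prime] [hq : Fact q.Prime]
    (P : Sylow p G) (Q : Sylow q G)
    (hcomm : ∀ a ∈ (P : Subgroup G), ∀ b ∈ (Q : Subgroup G), Commute a b) {z w : G}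
    (hzP : z ∈ (P : Subgroup G)) (hzc : ∀ a ∈ (P : Subgroup G), Commute a z)
    (hwQ : w ∈ (Q : Subgroup G)) (hw1 : w ≠ 1) :
    Subgroup.centralizer ({w} : Set G) ≤ Subgroup.centralizer ({z} : Set G) := by
  intro u hu
  refine Transfer.mem_of_forall_pow_ordCompl_mem fun r hr => mem_cen.mpr ?_
  haveI := Fact.mk hr
  set v := u ^ ordCompl[r] (orderOf u)
  have hv : orderOf v = r ^ (orderOf u).factorization r := by
    rw [orderOf_pow_of_dvd (Nat.ordCompl_pos r (orderOf_pos u).ne').ne' (Nat.ordCompl_dvd _ _),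
      Nat.div_div_self (Nat.ordProj_dvd _ _) (orderOf_pos u).ne']
  have hvw : Commute v w := (mem_cen.mp hu).pow_left _
  by_cases hrp : r = p
  · subst hrp
    exact hzc v (mem_of_nilpotent (h w hw1) P (fun a ha => mem_cen.mpr (hcomm a ha w hwQ))
      (mem_cen.mpr hvw) hv)
  · obtain ⟨j, hj⟩ := pow_of_mem P.2 hzP
    exact commute_of_cen h hw1 hrp hvw (hcomm z hzP w hwQ) hv hj

theorem IsHall.eq_of_mem (h : Cfsg.IsCNGroup G) (hTI : SylowTI G) {A : Subgroup G} (hA : IsHall A)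
    {q : ℕ} [hq : Fact q.Prime] (Q : Sylow q G) {x : G} (hxA : x ∈ A) (hxQ : x ∈ (Q : Subgroup G))
    (hx1 : x ≠ 1) {w : G} (hwQ : w ∈ (Q : Subgroup G)) (hw1 : w ≠ 1)
    (hwc : ∀ a ∈ (Q : Subgroup G), Commute a w) : A = Subgroup.centralizer ({w} : Set G) := by
  obtain ⟨p, hp, P, z, hzP, hz1, hzc, rfl⟩ := hA
  haveI := Fact.mk hp
  have hxz := mem_cen.mp hxA
  obtain ⟨i, hi⟩ := pow_of_mem Q.2 hxQ
  by_cases hpq : p = q
  · subst hpq
    have hxP := mem_sylow_of_commute hTI P hzP hz1 hxz hi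
    obtain rfl := hTI p hp P Q fun e => hx1 (by
      have h1 : x ∈ (P : Subgroup G) ⊓ (Q : Subgroup G) := ⟨hxP, hxQ⟩
      rwa [e, Subgroup.mem_bot] at h1)
    exact le_antisymm (cen_le h hTI P hwQ hwc hzP hz1) (cen_le h hTI P hzP hzc hwQ hw1)
  · have hcomm := comm_sylow h hpq hz1 hx1 hxz.symm P Q hzP hxQ
    exact le_antisymm (cen_half h Q P (fun a ha b hb => (hcomm b hb a ha).symm) hwQ hwc hzP hz1)
      (cen_half h P Q hcomm hzP hzc hwQ hw1)

/-- Every element lies in a member together with its centraliser. -/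
theorem exists_hall (h : Cfsg.IsCNGroup G) (hTI : SylowTI G) {g : G} (hg : g ≠ 1) :
    ∃ A, IsHall A ∧ g ∈ A ∧ Subgroup.centralizer ({g} : Set G) ≤ A ∧
      ∀ B, IsHall B → g ∈ B → B = A := by
  obtain ⟨q, hq, hqd⟩ := Nat.exists_prime_and_dvd (n := orderOf g)
    (fun e => hg (orderOf_eq_one_iff.mp e))
  haveI := Fact.mk hq
  set x := g ^ (orderOf g / q)
  have hx : orderOf x = q ^ 1 := by
    rw [orderOf_pow_of_dvd (Nat.div_pos (Nat.le_of_dvd (orderOf_pos g) hqd) hq.pos).ne'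
      (Nat.div_dvd_of_dvd hqd), Nat.div_div_self hqd (orderOf_pos g).ne', pow_one]
  have hx1 : x ≠ 1 := fun e => hq.one_lt.ne' (by rw [← pow_one q, ← hx, e, orderOf_one])
  obtain ⟨Q, hxQ⟩ := exists_sylow_mem hx
  obtain ⟨w, hwQ, hw1, hwc⟩ := exists_center Q fun e => hx1 (by
    rw [e, Subgroup.mem_bot] at hxQ; exact hxQ)
  have hle : Subgroup.centralizer ({g} : Set G) ≤ Subgroup.centralizer ({w} : Set G) :=
    le_trans (fun y hy => mem_cen.mpr ((mem_cen.mp hy).pow_right _))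
      (cen_le h hTI Q hwQ hwc hxQ hx1)
  exact ⟨_, ⟨q, hq, Q, w, hwQ, hw1, hwc, rfl⟩, hle (mem_cen.mpr (Commute.refl g)), hle,
    fun B hB hgB => hB.eq_of_mem h hTI Q (pow_mem hgB _) hxQ hx1 hwQ hw1 hwc⟩

theorem IsHall.ne_bot {A : Subgroup G} (hA : IsHall A) : A ≠ ⊥ := by
  obtain ⟨p, -, P, z, -, hz1, -, rfl⟩ := hA
  intro e
  exact hz1 (Subgroup.mem_bot.mp (e ▸ mem_cen.mpr (Commute.refl z)))

theorem IsHall.conj {A : Subgroup G} (hA : IsHall A) (g : G) :
    IsHall (A.map (MulAut.conj g).toMonoidHom) := by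
  obtain ⟨p, hp, P, z, hzP, hz1, hzc, rfl⟩ := hA
  haveI := Fact.mk hp
  refine ⟨p, hp, g • P, g * z * g⁻¹, ⟨z, hzP, rfl⟩, fun e => hz1 (conj_eq_one_iff.mp e), ?_, ?_⟩
  · rintro _ ⟨a, ha, rfl⟩
    exact (hzc a ha).map (MulAut.conj g).toMonoidHom
  · ext y
    constructor
    · rintro ⟨a, ha, rfl⟩
      exact mem_cen.mpr ((mem_cen.mp ha).map (MulAut.conj g).toMonoidHom)
    · intro hy
      refine ⟨g⁻¹ * y * g, mem_cen.mpr ?_, by simp [MulAut.conj_apply, mul_assoc]⟩
      have h1 := (mem_cen.mp hy).map (MulAut.conj g⁻¹).toMonoidHom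
      simpa [MulAut.conj_apply, mul_assoc] using h1

end Cfsg.Lib.CNOdd
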